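/-
Linear algebra for eigenspaces: sums of dimensions of pieces of distinct eigenspaces,
operators shifting eigenvalues by a root of unity, and decomposition of an invariant subspace under
an operator of finite order.
-/
import Mathlib

set_option autoImplicit false

namespace Cfsg.Agent.Lib.ExtraEig

open Module

variable {F V : Type*} [Field F] [AddCommGroup V] [Module F V] [FiniteDimensional F V]

/-- Pieces of distinct eigenspaces inside `U` have total dimension at most `dim U`. -/
theorem sum_finrank_le {ι : Type*} (t : Finset ι) (h : End F V) (e : ι → F)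
    (he : Set.InjOn e t) (A : ι → Submodule F V) (hA : ∀ i ∈ t, A i ≤ h.eigenspace (e i))
    (U : Submodule F V) (hU : ∀ i ∈ t, A i ≤ U) :
    ∑ i ∈ t, finrank F (A i) ≤ finrank F U := by
  classical
  have key : ∀ s : Finset ι, s ⊆ t →
      ∑ i ∈ s, finrank F (A i) ≤ finrank F ↥(⨆ i ∈ s, A i) := by
    intro s
    induction s using Finset.induction_on with
    | empty =>
      intro _
      simp
    | insert a s ha ih =>
      intro hs
      have hs' : s ⊆ t := fun x hx => hs (Finset.mem_insert_of_mem hx)
      have hat : a ∈ t := hs (Finset.mem_insert_self _ _)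
      rw [Finset.sum_insert ha, Finset.iSup_insert]
      have hdis : Disjoint (A a) (⨆ i ∈ s, A i) := by
        have hnot : e a ∉ e '' (s : Set ι) := by
          rintro ⟨i, hi, hia⟩
          exact ha ((he (hs' hi) hat hia) ▸ hi)
        have h1 := (Module.End.eigenspaces_iSupIndep h).disjoint_biSup hnot
        refine Disjoint.mono (hA a hat) ?_ h1
        refine iSup₂_le fun i hi => ?_
        exact (hA i (hs' hi)).trans
          (le_iSup₂_of_le (f := fun μ (_ : μ ∈ e '' (s : Set ι)) => h.eigenspace μ) (e i)
            ⟨i, hi, rfl⟩ le_rfl)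
      have h2 := Submodule.finrank_sup_add_finrank_inf_eq (A a) (⨆ i ∈ s, A i)
      rw [hdis.eq_bot, finrank_bot, add_zero] at h2
      have h3 := ih hs'
      omega
  refine (key t subset_rfl).trans (Submodule.finrank_mono ?_)
  exact iSup₂_le hU

omit [FiniteDimensional F V] in
theorem finrank_map_inj (f : End F V) (hf : Function.Injective f) (W : Submodule F V) :
    finrank F ↥(W.map f) = finrank F W :=
  (Submodule.equivMapOfInjective f hf W).finrank_eq.symm

/-- An operator multiplying eigenvalues of `h` by a primitive root shifts eigenspaces. -/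
theorem mul_finrank_le (h u : End F V) (hu : Function.Injective u) {κ c : F} {r : ℕ}
    (hκ : IsPrimitiveRoot κ r) (hc : c ≠ 0) (hrel : h * u = κ • (u * h))
    (U : Submodule F V) (hU : ∀ v ∈ U, u v ∈ U) :
    r * finrank F ↥(h.eigenspace c ⊓ U) ≤ finrank F U := by
  classical
  have hpow : ∀ j : ℕ, h * u ^ j = κ ^ j • (u ^ j * h) := by
    intro j
    induction j with
    | zero => simp
    | succ j ih =>
      rw [pow_succ, ← mul_assoc, ih, smul_mul_assoc, mul_assoc, hrel, mul_smul_comm, ← mul_assoc,
        smul_smul, pow_succ]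
  have hinj : ∀ j : ℕ, Function.Injective (u ^ j) := by
    intro j
    induction j with
    | zero => exact Function.injective_id
    | succ j ih =>
      rw [pow_succ]
      exact ih.comp hu
  have hUj : ∀ j : ℕ, ∀ v ∈ U, (u ^ j) v ∈ U := by
    intro j
    induction j with
    | zero =>
      intro v hv
      simpa using hv
    | succ j ih =>
      intro v hv
      rw [pow_succ]
      exact ih _ (hU v hv)
  have := sum_finrank_le (Finset.range r) h (fun j => κ ^ j * c)
    (by
      intro i hi j hj hij
      have hi' : i < r := Finset.mem_range.mp hi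
      have hj' : j < r := Finset.mem_range.mp hj
      exact hκ.pow_inj hi' hj' (mul_right_cancel₀ hc hij))
    (fun j => (h.eigenspace c ⊓ U).map (u ^ j))
    (by
      rintro j - _ ⟨v, ⟨hv1, -⟩, rfl⟩
      rw [Module.End.mem_eigenspace_iff]
      have h1 := LinearMap.congr_fun (hpow j) v
      simp only [Module.End.mul_apply, LinearMap.smul_apply] at h1
      rw [h1, Module.End.mem_eigenspace_iff.mp hv1, map_smul, smul_smul])
    U
    (by
      rintro j - _ ⟨v, ⟨-, hv2⟩, rfl⟩
      exact hUj j v hv2)
  simp only [finrank_map_inj _ (hinj _), Finset.sum_const, Finset.card_range, smul_eq_mul] at this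
  exact this

/-- Two translates: an operator multiplying by `lam ≠ 1`. -/
theorem two_mul_finrank_le (h u : End F V) (hu : Function.Injective u) {lam c : F}
    (hlam : lam ≠ 1) (hc : c ≠ 0) (hrel : h * u = lam • (u * h)) :
    2 * finrank F (h.eigenspace c) ≤ finrank F V := by
  have hne : c ≠ lam * c := by
    intro h0
    apply hlam
    have : (lam - 1) * c = 0 := by rw [sub_mul, one_mul, ← h0, sub_self]
    exact sub_eq_zero.mp ((mul_eq_zero.mp this).resolve_right hc)
  have hd : Disjoint (h.eigenspace c) (h.eigenspace (lam * c)) :=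
    (Module.End.eigenspaces_iSupIndep h).pairwiseDisjoint hne
  have hle : (h.eigenspace c).map u ≤ h.eigenspace (lam * c) := by
    rintro _ ⟨v, hv, rfl⟩
    rw [Module.End.mem_eigenspace_iff]
    have h1 := LinearMap.congr_fun hrel v
    simp only [Module.End.mul_apply, LinearMap.smul_apply] at h1
    rw [h1, Module.End.mem_eigenspace_iff.mp hv, map_smul, smul_smul]
  have h2 := Submodule.finrank_sup_add_finrank_inf_eq (h.eigenspace c) ((h.eigenspace c).map u)
  rw [(hd.mono_right hle).eq_bot, finrank_bot, add_zero, finrank_map_inj _ hu] at h2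
  have h3 := Submodule.finrank_le (h.eigenspace c ⊔ (h.eigenspace c).map u)
  omega

/-- Decomposition of an invariant subspace under an operator of finite order. -/
theorem finrank_le_sum (y : End F V) {ζ : F} {r : ℕ} (hζ : IsPrimitiveRoot ζ r) (hr : 0 < r)
    (hy : y ^ r = 1) (W : Submodule F V) (hW : ∀ v ∈ W, y v ∈ W) :
    finrank F W ≤ ∑ i ∈ Finset.range r, finrank F ↥(W ⊓ y.eigenspace (ζ ^ i)) := by
  classical
  have hr0 : (r : F) ≠ 0 := by
    have : NeZero r := ⟨hr.ne'⟩
    exact hζ.neZero'.out
  have hζ0 : ζ ≠ 0 := hζ.ne_zero hr.ne'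
  -- projections
  let P : ℕ → End F V := fun i =>
    (r : F)⁻¹ • ∑ j ∈ Finset.range r, ((ζ ^ i)⁻¹) ^ j • y ^ j
  have hPy : ∀ i, y * P i = ζ ^ i • P i := by
    intro i
    set x := (ζ ^ i)⁻¹ with hx
    have hx0 : x ≠ 0 := inv_ne_zero (pow_ne_zero _ hζ0)
    have hxr : x ^ r = 1 := by
      rw [hx, inv_pow, ← pow_mul, mul_comm, pow_mul, hζ.pow_eq_one, one_pow, inv_one]
    have hshift : ∑ j ∈ Finset.range r, x ^ (j + 1) • y ^ (j + 1)
        = ∑ j ∈ Finset.range r, x ^ j • y ^ j := by
      have h1 := Finset.sum_range_succ (fun j => x ^ j • y ^ j) r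
      have h2 := Finset.sum_range_succ' (fun j => x ^ j • y ^ j) r
      rw [h1] at h2
      simp only [pow_zero, one_smul, hxr, hy] at h2
      exact (add_right_cancel h2).symm
    have hxζ : ζ ^ i * x = 1 := mul_inv_cancel₀ (pow_ne_zero _ hζ0)
    show y * ((r : F)⁻¹ • ∑ j ∈ Finset.range r, x ^ j • y ^ j) =
      ζ ^ i • ((r : F)⁻¹ • ∑ j ∈ Finset.range r, x ^ j • y ^ j)
    rw [mul_smul_comm, smul_comm]
    congr 1
    conv_rhs => rw [← hshift]
    rw [Finset.mul_sum, Finset.smul_sum]
    refine Finset.sum_congr rfl fun j _ => ?_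
    rw [mul_smul_comm, smul_smul, pow_succ' y j, pow_succ' x j, ← mul_assoc, hxζ, one_mul]
  have hsum : ∑ i ∈ Finset.range r, P i = 1 := by
    have hgeom : ∀ j ∈ Finset.range r,
        ∑ i ∈ Finset.range r, ((ζ ^ i)⁻¹) ^ j = if j = 0 then (r : F) else 0 := by
      intro j hj
      have hj' := Finset.mem_range.mp hj
      split_ifs with h0
      · subst h0
        simp
      · have hne : (ζ ^ j)⁻¹ ≠ 1 := by
          intro h1
          have h2 : ζ ^ j = 1 := by simpa using h1
          have := hζ.pow_eq_one_iff_dvd j |>.mp h2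
          exact h0 (Nat.eq_zero_of_dvd_of_lt this hj')
        have h3 : ∀ i, ((ζ ^ i)⁻¹) ^ j = ((ζ ^ j)⁻¹) ^ i := by
          intro i
          rw [inv_pow, inv_pow, ← pow_mul, ← pow_mul, mul_comm]
        simp only [h3]
        have h4 := mul_geom_sum ((ζ ^ j)⁻¹) r
        have h5 : ((ζ ^ j)⁻¹) ^ r = 1 := by
          rw [inv_pow, ← pow_mul, mul_comm, pow_mul, hζ.pow_eq_one, one_pow, inv_one]
        rw [h5, sub_self] at h4
        exact (mul_eq_zero.mp h4).resolve_left (sub_ne_zero.mpr hne)
    have : ∑ i ∈ Finset.range r, P i =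
        (r : F)⁻¹ • ∑ j ∈ Finset.range r, (∑ i ∈ Finset.range r, ((ζ ^ i)⁻¹) ^ j) • y ^ j := by
      simp only [P]
      rw [← Finset.smul_sum, Finset.sum_comm]
      congr 1
      refine Finset.sum_congr rfl fun j _ => ?_
      rw [Finset.sum_smul]
    rw [this, Finset.sum_congr rfl (fun j hj => by rw [hgeom j hj])]
    have h6 : ∑ j ∈ Finset.range r, (if j = 0 then (r : F) else 0) • y ^ j = (r : F) • 1 := by
      rw [Finset.sum_eq_single 0]
      · simp
      · intro j _ hj
        simp [hj]
      · intro h
        exact absurd (Finset.mem_range.mpr hr) h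
    rw [h6, smul_smul, inv_mul_cancel₀ hr0, one_smul]
  have hle : W ≤ ⨆ i ∈ Finset.range r, W ⊓ y.eigenspace (ζ ^ i) := by
    intro v hv
    have hv' : v = ∑ i ∈ Finset.range r, P i v := by
      have := LinearMap.congr_fun hsum v
      simpa using this.symm
    rw [hv']
    refine Submodule.sum_mem _ fun i hi => ?_
    refine Submodule.mem_iSup_of_mem i (Submodule.mem_iSup_of_mem hi ⟨?_, ?_⟩)
    · have hpow : ∀ j, (y ^ j) v ∈ W := by
        intro j
        induction j with
        | zero => simpa using hv
        | succ j ih =>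
          rw [pow_succ', Module.End.mul_apply]
          exact hW _ ih
      simp only [P, LinearMap.smul_apply, LinearMap.sum_apply]
      exact W.smul_mem _ (Submodule.sum_mem _ fun j _ => W.smul_mem _ (hpow j))
    · rw [SetLike.mem_coe, Module.End.mem_eigenspace_iff]
      have := LinearMap.congr_fun (hPy i) v
      simpa using this
  refine (Submodule.finrank_mono hle).trans ?_
  have hsup : ∀ s : Finset ℕ, finrank F ↥(⨆ i ∈ s, W ⊓ y.eigenspace (ζ ^ i)) ≤
      ∑ i ∈ s, finrank F ↥(W ⊓ y.eigenspace (ζ ^ i)) := by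
    intro s
    induction s using Finset.induction_on with
    | empty => simp
    | insert a s ha ih =>
      rw [Finset.sum_insert ha, Finset.iSup_insert]
      exact (Submodule.finrank_add_le_finrank_add_finrank _ _).trans (by omega)
  exact hsup _

end Cfsg.Agent.Lib.ExtraEig
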