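/-
Operator relations `G X = X Y G`, `G Y = Y G`, `Y X = θ X Y`: bounds for eigenspaces of `G`.
-/
import Cfsg.Agent.Lib.ExtraEig.Basic

set_option autoImplicit false

namespace Cfsg.Agent.Lib.ExtraEig

open Module

variable {F V : Type*} [Field F] [AddCommGroup V] [Module F V] [FiniteDimensional F V]

/-- A version of `mul_finrank_le` with the relation holding on `U` only. -/
theorem mul_finrank_le' (h u : End F V) (hu : Function.Injective u) {κ c : F} {r : ℕ}
    (hκ : IsPrimitiveRoot κ r) (hc : c ≠ 0) (U : Submodule F V) (hU : ∀ v ∈ U, u v ∈ U)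
    (hrel : ∀ v ∈ U, h (u v) = κ • u (h v)) :
    r * finrank F ↥(h.eigenspace c ⊓ U) ≤ finrank F U := by
  classical
  have hUj : ∀ j : ℕ, ∀ v ∈ U, (u ^ j) v ∈ U := by
    intro j
    induction j with
    | zero =>
      intro v hv
      simpa using hv
    | succ j ih =>
      intro v hv
      rw [pow_succ]
      exact ih _ (hU v hv)
  have hpow : ∀ j : ℕ, ∀ v ∈ U, h ((u ^ j) v) = κ ^ j • (u ^ j) (h v) := by
    intro j
    induction j with
    | zero =>
      intro v _
      simp
    | succ j ih =>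
      intro v hv
      rw [pow_succ u j, Module.End.mul_apply, ih _ (hU v hv), hrel v hv, map_smul, smul_smul,
        pow_succ κ j, Module.End.mul_apply]
  have hinj : ∀ j : ℕ, Function.Injective (u ^ j) := by
    intro j
    induction j with
    | zero => exact Function.injective_id
    | succ j ih =>
      rw [pow_succ]
      exact ih.comp hu
  have := sum_finrank_le (Finset.range r) h (fun j => κ ^ j * c)
    (by
      intro i hi j hj hij
      have hi' : i < r := Finset.mem_range.mp hi
      have hj' : j < r := Finset.mem_range.mp hj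
      exact hκ.pow_inj hi' hj' (mul_right_cancel₀ hc hij))
    (fun j => (h.eigenspace c ⊓ U).map (u ^ j))
    (by
      rintro j - _ ⟨v, ⟨hv1, hv2⟩, rfl⟩
      rw [Module.End.mem_eigenspace_iff]
      rw [hpow j v hv2, Module.End.mem_eigenspace_iff.mp hv1, map_smul, smul_smul])
    U
    (by
      rintro j - _ ⟨v, ⟨-, hv2⟩, rfl⟩
      exact hUj j v hv2)
  simp only [finrank_map_inj _ (hinj _), Finset.sum_const, Finset.card_range, smul_eq_mul] at this
  exact this

/-- Commuting case. -/
theorem comm_bound (G X Y : End F V) (hX : Function.Injective X) {ζ c : F} {r : ℕ}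
    (hr : r.Prime) (hζ : IsPrimitiveRoot ζ r) (hc : c ≠ 0)
    (hGX : G * X = X * Y * G) (hGY : G * Y = Y * G) (hYX : Y * X = X * Y) (hYr : Y ^ r = 1)
    (hE : ∀ η : F, η ≠ 0 → r * finrank F (Y.eigenspace η) ≤ finrank F V) :
    r ^ 2 * finrank F (G.eigenspace c) ≤ (2 * r - 1) * finrank F V := by
  set n := finrank F V with hn
  have hW : ∀ v ∈ G.eigenspace c, Y v ∈ G.eigenspace c := by
    intro v hv
    rw [Module.End.mem_eigenspace_iff] at hv ⊢
    have h1 := LinearMap.congr_fun hGY v
    simp only [Module.End.mul_apply] at h1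
    rw [h1, hv, map_smul]
  have hsum := finrank_le_sum Y hζ hr.pos hYr (G.eigenspace c) hW
  have hζ0 : ζ ≠ 0 := hζ.ne_zero hr.ne_zero
  have hstep : ∀ i, i + 1 < r →
      r ^ 2 * finrank F ↥(G.eigenspace c ⊓ Y.eigenspace (ζ ^ (i + 1))) ≤ n := by
    intro i hi
    have hcop : Nat.Coprime (i + 1) r :=
      ((Nat.Prime.coprime_iff_not_dvd hr).mpr (Nat.not_dvd_of_pos_of_lt (by omega) hi)).symm
    have hprim : IsPrimitiveRoot (ζ ^ (i + 1)) r := hζ.pow_of_coprime _ hcop
    have h1 := mul_finrank_le' G X hX hprim hc (Y.eigenspace (ζ ^ (i + 1)))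
      (by
        intro v hv
        rw [Module.End.mem_eigenspace_iff] at hv ⊢
        have h1 := LinearMap.congr_fun hYX v
        simp only [Module.End.mul_apply] at h1
        rw [h1, hv, map_smul])
      (by
        intro v hv
        rw [Module.End.mem_eigenspace_iff] at hv
        have h1 := LinearMap.congr_fun hGX v
        simp only [Module.End.mul_apply] at h1
        have h2 := LinearMap.congr_fun hGY v
        simp only [Module.End.mul_apply] at h2
        rw [h1, ← h2, hv, map_smul, map_smul])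
    have h2 := hE (ζ ^ (i + 1)) (pow_ne_zero _ hζ0)
    calc r ^ 2 * finrank F ↥(G.eigenspace c ⊓ Y.eigenspace (ζ ^ (i + 1)))
        = r * (r * finrank F ↥(G.eigenspace c ⊓ Y.eigenspace (ζ ^ (i + 1)))) := by ring
      _ ≤ r * finrank F (Y.eigenspace (ζ ^ (i + 1))) := Nat.mul_le_mul_left _ h1
      _ ≤ n := h2
  have h0 : r ^ 2 * finrank F ↥(G.eigenspace c ⊓ Y.eigenspace (ζ ^ 0)) ≤ r * n := by
    have h2 := hE (ζ ^ 0) (pow_ne_zero _ hζ0)
    have h3 : finrank F ↥(G.eigenspace c ⊓ Y.eigenspace (ζ ^ 0))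
        ≤ finrank F (Y.eigenspace (ζ ^ 0)) := Submodule.finrank_mono inf_le_right
    calc r ^ 2 * finrank F ↥(G.eigenspace c ⊓ Y.eigenspace (ζ ^ 0))
        = r * (r * finrank F ↥(G.eigenspace c ⊓ Y.eigenspace (ζ ^ 0))) := by ring
      _ ≤ r * (r * finrank F (Y.eigenspace (ζ ^ 0))) :=
          Nat.mul_le_mul_left _ (Nat.mul_le_mul_left _ h3)
      _ ≤ r * n := Nat.mul_le_mul_left _ h2
  obtain ⟨k, rfl⟩ : ∃ k, r = k + 1 := ⟨r - 1, by have := hr.pos; omega⟩
  rw [Finset.sum_range_succ'] at hsum
  have hbig : ∑ i ∈ Finset.range k,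
      (k + 1) ^ 2 * finrank F ↥(G.eigenspace c ⊓ Y.eigenspace (ζ ^ (i + 1))) ≤ k * n := by
    calc _ ≤ ∑ _i ∈ Finset.range k, n :=
          Finset.sum_le_sum fun i hi => hstep i (by have := Finset.mem_range.mp hi; omega)
      _ = k * n := by simp
  rw [← Finset.mul_sum] at hbig
  have h5 : (k + 1) ^ 2 * finrank F (G.eigenspace c) ≤
      (k + 1) ^ 2 * (∑ i ∈ Finset.range k,
        finrank F ↥(G.eigenspace c ⊓ Y.eigenspace (ζ ^ (i + 1))) +
        finrank F ↥(G.eigenspace c ⊓ Y.eigenspace (ζ ^ 0))) := Nat.mul_le_mul_left _ hsum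
  rw [mul_add] at h5
  have h6 : (2 * (k + 1) - 1) * n = k * n + (k + 1) * n := by
    have : 2 * (k + 1) - 1 = k + (k + 1) := by omega
    rw [this, add_mul]
  rw [h6]
  omega

/-- Non-commuting case. -/
theorem noncomm_bound (G X Y : End F V) (hX : Function.Injective X) {θ c : F} {r : ℕ}
    (hr : r.Prime) (hθ : IsPrimitiveRoot θ r) (hc : c ≠ 0)
    (hGX : G * X = X * Y * G) (hGY : G * Y = Y * G) (hYX : Y * X = θ • (X * Y)) (hYr : Y ^ r = 1)
    (hE : r * finrank F (Y.eigenspace 1) ≤ finrank F V) :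
    r * finrank F (G.eigenspace c) ≤ 2 * finrank F V := by
  classical
  have : Fact r.Prime := ⟨hr⟩
  have hθ0 : θ ≠ 0 := hθ.ne_zero hr.ne_zero
  have hW : ∀ v ∈ G.eigenspace c, Y v ∈ G.eigenspace c := by
    intro v hv
    rw [Module.End.mem_eigenspace_iff] at hv ⊢
    have h1 := LinearMap.congr_fun hGY v
    simp only [Module.End.mul_apply] at h1
    rw [h1, hv, map_smul]
  have hsum := finrank_le_sum Y hθ hr.pos hYr (G.eigenspace c) hW
  -- the triangular numbers
  let T : ℕ → ℕ := fun s => ∑ i ∈ Finset.range s, i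
  have hT : ∀ s, T (s + 1) = T s + s := fun s => Finset.sum_range_succ _ _
  have hT2 : ∀ s, 2 * T s + s = s * s := by
    intro s
    induction s with
    | zero => simp [T]
    | succ s ih =>
      rw [hT]
      nlinarith
  have hp1 : ∀ s : ℕ, Y ^ s * X = θ ^ s • (X * Y ^ s) := by
    intro s
    induction s with
    | zero => simp
    | succ s ih =>
      rw [pow_succ, mul_assoc, hYX, mul_smul_comm, ← mul_assoc, ih, smul_mul_assoc, smul_smul,
        mul_assoc, ← pow_succ, pow_succ θ, mul_comm (θ ^ s) θ, mul_comm θ (θ ^ s)]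
  have hp3 : ∀ s : ℕ, Y * X ^ s = θ ^ s • (X ^ s * Y) := by
    intro s
    induction s with
    | zero => simp
    | succ s ih =>
      rw [pow_succ, ← mul_assoc, ih, smul_mul_assoc, mul_assoc, hYX, mul_smul_comm, smul_smul,
        ← mul_assoc, pow_succ θ]
  have hp2 : ∀ s : ℕ, G * X ^ s = θ ^ T s • (X ^ s * Y ^ s * G) := by
    intro s
    induction s with
    | zero => simp [T]
    | succ s ih =>
      have h1 : G * X ^ (s + 1) = (G * X ^ s) * X := by rw [pow_succ, mul_assoc]
      have h2 : X ^ s * Y ^ s * G * X = X ^ s * (Y ^ s * X) * Y * G := by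
        rw [mul_assoc, mul_assoc, hGX]
        simp only [mul_assoc]
      rw [h1, ih, smul_mul_assoc, h2, hp1, mul_smul_comm, smul_mul_assoc, smul_mul_assoc, smul_smul,
        hT, pow_add, pow_succ X, pow_succ Y]
      simp only [mul_assoc]
  have hGYs : ∀ s : ℕ, G * Y ^ s = Y ^ s * G := fun s =>
    (Commute.pow_right (show Commute G Y from hGY) s)
  have hXs : ∀ s : ℕ, Function.Injective (X ^ s) := by
    intro s
    induction s with
    | zero => exact Function.injective_id
    | succ s ih =>
      rw [pow_succ]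
      exact ih.comp hX
  have hXs' : ∀ s : ℕ, Function.Surjective (X ^ s) := fun s =>
    LinearMap.injective_iff_surjective.mp (hXs s)
  let ρ : ℕ → F := fun s => (θ ^ T s)⁻¹
  have hpiece : ∀ s, finrank F ↥(G.eigenspace c ⊓ Y.eigenspace (θ ^ s)) ≤
      finrank F ↥(G.eigenspace (c * ρ s) ⊓ Y.eigenspace 1) := by
    intro s
    have hle : G.eigenspace c ⊓ Y.eigenspace (θ ^ s) ≤
        (G.eigenspace (c * ρ s) ⊓ Y.eigenspace 1).map (X ^ s) := by
      rintro v ⟨hv1, hv2⟩
      rw [SetLike.mem_coe, Module.End.mem_eigenspace_iff] at hv1 hv2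
      obtain ⟨w, rfl⟩ := hXs' s v
      have hYw : Y w = w := by
        have h1 := LinearMap.congr_fun (hp3 s) w
        simp only [Module.End.mul_apply, LinearMap.smul_apply] at h1
        rw [h1] at hv2
        have h2 := smul_right_injective _ (pow_ne_zero s hθ0) hv2
        exact hXs s h2
      have hYsw : ∀ k : ℕ, (Y ^ k) w = w := by
        intro k
        induction k with
        | zero => simp
        | succ k ih => rw [pow_succ, Module.End.mul_apply, hYw, ih]
      have hGw : G w = (c * ρ s) • w := by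
        have h1 := LinearMap.congr_fun (hp2 s) w
        simp only [Module.End.mul_apply, LinearMap.smul_apply] at h1
        have h2 := LinearMap.congr_fun (hGYs s) w
        simp only [Module.End.mul_apply] at h2
        rw [← h2, hYsw, ← map_smul, hv1] at h1
        have h3 : (X ^ s) (c • w) = (X ^ s) (θ ^ T s • G w) := by
          rw [map_smul]
          exact h1
        have h4 := hXs s h3
        have h5 : θ ^ T s ≠ 0 := pow_ne_zero _ hθ0
        rw [mul_comm, mul_smul, h4, smul_smul]
        simp only [ρ]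
        rw [inv_mul_cancel₀ h5, one_smul]
      exact ⟨w, ⟨Module.End.mem_eigenspace_iff.mpr hGw,
        Module.End.mem_eigenspace_iff.mpr (by rw [hYw, one_smul])⟩, rfl⟩
    exact (Submodule.finrank_mono hle).trans (finrank_map_inj _ (hXs s) _).le
  -- fibres of `ρ` have at most two elements
  have hfib : ∀ b, ((Finset.range r).filter (fun s => ρ s = b)).card ≤ 2 := by
    intro b
    by_contra hcon
    push Not at hcon
    obtain ⟨s₁, h₁, s₂, h₂, s₃, h₃, h12, h13, h23⟩ := Finset.two_lt_card.mp hcon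
    simp only [Finset.mem_filter, Finset.mem_range] at h₁ h₂ h₃
    have key : ∀ a a', a < r → a' < r → a ≠ a' → ρ a = ρ a' →
        ((a : ZMod r) + a' - 1 = 0) := by
      intro a a' ha ha' hne hρ
      have h1 : θ ^ T a = θ ^ T a' := by simpa [ρ] using hρ
      have h2 : (T a : ZMod r) = T a' := by
        have h0 := hθ.eq_orderOf
        have h7 : θ ^ (T a % r) = θ ^ (T a' % r) := by
          rw [h0, pow_mod_orderOf, pow_mod_orderOf]
          exact h1
        have h8 := hθ.pow_inj (Nat.mod_lt _ hr.pos) (Nat.mod_lt _ hr.pos) h7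
        exact (ZMod.natCast_eq_natCast_iff' _ _ _).mpr h8
      have h3 : ((a : ZMod r) - a') * (a + a' - 1) = 0 := by
        have e1 := congrArg (Nat.cast : ℕ → ZMod r) (hT2 a)
        have e2 := congrArg (Nat.cast : ℕ → ZMod r) (hT2 a')
        push_cast at e1 e2
        rw [h2] at e1
        linear_combination e2 - e1
      rcases mul_eq_zero.mp h3 with h4 | h4
      · exfalso
        apply hne
        have h5 : (a : ZMod r) = a' := sub_eq_zero.mp h4
        have h6 := (ZMod.natCast_eq_natCast_iff' a a' r).mp h5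
        rwa [Nat.mod_eq_of_lt ha, Nat.mod_eq_of_lt ha'] at h6
      · exact h4
    have e12 := key s₁ s₂ h₁.1 h₂.1 h12 (h₁.2.trans h₂.2.symm)
    have e13 := key s₁ s₃ h₁.1 h₃.1 h13 (h₁.2.trans h₃.2.symm)
    apply h23
    have h5 : (s₂ : ZMod r) = s₃ := by linear_combination e12 - e13
    have h6 := (ZMod.natCast_eq_natCast_iff' s₂ s₃ r).mp h5
    rwa [Nat.mod_eq_of_lt h₂.1, Nat.mod_eq_of_lt h₃.1] at h6
  have hsumρ : ∑ s ∈ Finset.range r, finrank F ↥(G.eigenspace (c * ρ s) ⊓ Y.eigenspace 1) ≤
      2 * finrank F (Y.eigenspace 1) := by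
    have h1 := Finset.sum_comp (s := Finset.range r)
      (fun b => finrank F ↥(G.eigenspace (c * b) ⊓ Y.eigenspace 1)) ρ
    rw [h1]
    have h2 := sum_finrank_le ((Finset.range r).image ρ) G (fun b => c * b)
      (fun a _ b _ hab => mul_left_cancel₀ hc hab)
      (fun b => G.eigenspace (c * b) ⊓ Y.eigenspace 1)
      (fun b _ => inf_le_left) (Y.eigenspace 1) (fun b _ => inf_le_right)
    calc _ ≤ ∑ b ∈ (Finset.range r).image ρ,
          2 * finrank F ↥(G.eigenspace (c * b) ⊓ Y.eigenspace 1) :=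
          Finset.sum_le_sum fun b _ => by
            rw [smul_eq_mul]
            exact Nat.mul_le_mul_right _ (hfib b)
      _ = 2 * ∑ b ∈ (Finset.range r).image ρ,
          finrank F ↥(G.eigenspace (c * b) ⊓ Y.eigenspace 1) := by rw [Finset.mul_sum]
      _ ≤ _ := Nat.mul_le_mul_left _ h2
  have htot : finrank F (G.eigenspace c) ≤ 2 * finrank F (Y.eigenspace 1) :=
    hsum.trans ((Finset.sum_le_sum fun s _ => hpiece s).trans hsumρ)
  calc r * finrank F (G.eigenspace c) ≤ r * (2 * finrank F (Y.eigenspace 1)) :=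
        Nat.mul_le_mul_left _ htot
    _ = 2 * (r * finrank F (Y.eigenspace 1)) := by ring
    _ ≤ _ := Nat.mul_le_mul_left _ hE

end Cfsg.Agent.Lib.ExtraEig
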