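/-
An automorphism `σ` of a finite-exponent abelian group with an invariant nondegenerate alternating
biadditive form: existence of vectors `a` with `b(τ a, σ τ a) ≠ 0` (coprime case of odd order),
and of vectors with `τ a ≠ 0`, `τ² a = 0` (order equal to the exponent).
-/
import Mathlib

set_option autoImplicit false

namespace Cfsg.Agent.Lib.ExtraEig

/-- An invariant nondegenerate alternating form and an automorphism. -/
structure SympAut (A M : Type*) [AddCommGroup A] [AddCommGroup M] where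
  σ : A →+ A
  σ' : A →+ A
  left_inv : ∀ a, σ' (σ a) = a
  right_inv : ∀ a, σ (σ' a) = a
  b : A → A → M
  add_l : ∀ a a' c, b (a + a') c = b a c + b a' c
  add_r : ∀ a c c', b a (c + c') = b a c + b a c'
  alt : ∀ a, b a a = 0
  nd : ∀ a, (∀ c, b a c = 0) → a = 0
  inv : ∀ a c, b (σ a) (σ c) = b a c

namespace SympAut

variable {A M : Type*} [AddCommGroup A] [AddCommGroup M] (P : SympAut A M)

/-- `τ = σ - 1`. -/
def τ (a : A) : A := P.σ a - a

theorem τ_add (a a' : A) : P.τ (a + a') = P.τ a + P.τ a' := by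
  simp only [τ, map_add]
  abel

theorem zero_l (c : A) : P.b 0 c = 0 := by
  have := P.add_l 0 0 c
  rw [add_zero] at this
  exact left_eq_add.mp this

theorem zero_r (c : A) : P.b c 0 = 0 := by
  have := P.add_r c 0 0
  rw [add_zero] at this
  exact left_eq_add.mp this

theorem neg_l (a c : A) : P.b (-a) c = - P.b a c := by
  have := P.add_l a (-a) c
  rw [add_neg_cancel, zero_l] at this
  exact (neg_eq_of_add_eq_zero_right this.symm).symm

theorem neg_r (a c : A) : P.b a (-c) = - P.b a c := by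
  have := P.add_r a c (-c)
  rw [add_neg_cancel, zero_r] at this
  exact (neg_eq_of_add_eq_zero_right this.symm).symm

theorem sub_l (a a' c : A) : P.b (a - a') c = P.b a c - P.b a' c := by
  rw [sub_eq_add_neg, add_l, neg_l, sub_eq_add_neg]

theorem sub_r (a c c' : A) : P.b a (c - c') = P.b a c - P.b a c' := by
  rw [sub_eq_add_neg, add_r, neg_r, sub_eq_add_neg]

theorem skew (a c : A) : P.b a c = - P.b c a := by
  have := P.alt (a + c)
  rw [add_l, add_r, add_r, P.alt, P.alt, zero_add, add_zero] at this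
  exact eq_neg_of_add_eq_zero_left this

theorem nsmul_l (r : ℕ) (a c : A) : P.b (r • a) c = r • P.b a c := by
  induction r with
  | zero => simp [zero_l]
  | succ k ih => rw [succ_nsmul, add_l, ih, succ_nsmul]

/-- The exponent of the group from that of the values of the form. -/
theorem nsmul_eq_zero (r : ℕ) (hbr : ∀ a c, r • P.b a c = 0) (a : A) : r • a = 0 :=
  P.nd _ fun c => by rw [nsmul_l, hbr]

/-- If `τ² v = 0` and `ϖ` is coprime to the exponent then `τ v = 0`. -/
theorem τ_eq_zero_of_sq (r ϖ : ℕ) (hbr : ∀ a c, r • P.b a c = 0) (hcop : Nat.Coprime ϖ r)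
    (hper : ∀ a, P.σ^[ϖ] a = a) (v : A) (hv : P.τ (P.τ v) = 0) : P.τ v = 0 := by
  have hfix : P.σ (P.τ v) = P.τ v := sub_eq_zero.mp hv
  have hit : ∀ k : ℕ, P.σ^[k] v = v + k • P.τ v := by
    intro k
    induction k with
    | zero => simp
    | succ k ih =>
      rw [Function.iterate_succ_apply', ih, map_add, map_nsmul, hfix, succ_nsmul]
      simp only [τ]
      abel
  have h1 : ϖ • P.τ v = 0 := by
    have := hit ϖ
    rw [hper] at this
    exact left_eq_add.mp this
  have h2 : r • P.τ v = 0 := P.nsmul_eq_zero r hbr _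
  have h3 := addOrderOf_dvd_of_nsmul_eq_zero h1
  have h4 := addOrderOf_dvd_of_nsmul_eq_zero h2
  have h5 : addOrderOf (P.τ v) ∣ Nat.gcd ϖ r := Nat.dvd_gcd h3 h4
  rw [hcop] at h5
  exact AddMonoid.addOrderOf_eq_one_iff.mp (Nat.dvd_one.mp h5)

/-- Existence of `a` with `b(τ a, σ τ a) ≠ 0`. -/
theorem exists_Q_ne (r ϖ : ℕ) (hbr : ∀ a c, r • P.b a c = 0) (hodd : Odd ϖ)
    (hcop : Nat.Coprime ϖ r) (hper : ∀ a, P.σ^[ϖ] a = a) (hne : ∃ a, P.σ a ≠ a) :
    ∃ a, P.b (P.τ a) (P.σ (P.τ a)) ≠ 0 := by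
  by_contra hQ
  push Not at hQ
  have polar : ∀ a a', P.b (P.τ a) (P.σ (P.τ a')) + P.b (P.τ a') (P.σ (P.τ a)) = 0 := by
    intro a a'
    have h := hQ (a + a')
    rw [τ_add, map_add, add_l, add_r, add_r, hQ a, hQ a', zero_add, add_zero] at h
    exact h
  have hw : ∀ e₀ a', e₀ = P.τ a' → P.σ' (P.σ e₀ - P.σ' e₀) = P.σ e₀ - P.σ' e₀ := by
    rintro e₀ a' rfl
    refine sub_eq_zero.mp (P.nd _ fun c => ?_)
    rw [skew, neg_eq_zero, sub_r]
    have h1 : P.b c (P.σ' (P.σ (P.τ a') - P.σ' (P.τ a')))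
        = P.b (P.σ c) (P.σ (P.τ a') - P.σ' (P.τ a')) := by
      conv_rhs => rw [← P.right_inv (P.σ (P.τ a') - P.σ' (P.τ a'))]
      rw [P.inv]
    rw [h1, ← sub_l]
    change P.b (P.τ c) _ = 0
    rw [sub_r, sub_eq_zero]
    have h2 := polar c a'
    have h3 : P.b (P.τ a') (P.σ (P.τ c)) = - P.b (P.τ c) (P.σ' (P.τ a')) := by
      rw [skew]
      congr 1
      conv_lhs => rw [← P.right_inv (P.τ a')]
      rw [P.inv]
    rw [h3] at h2
    exact sub_eq_zero.mp ((sub_eq_add_neg _ _).trans h2)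
  have hrel : ∀ a', P.τ (P.τ (P.τ (P.τ a'))) = 0 := by
    intro a'
    set e₀ := P.τ a' with he₀
    have h0 := hw e₀ a' he₀
    have h1 : P.σ e₀ - P.σ' e₀ = P.σ (P.σ e₀) - e₀ := by
      have h := congrArg P.σ h0
      rw [P.right_inv, map_sub, P.right_inv] at h
      exact h
    have h2 : P.σ (P.σ (P.σ e₀)) - P.σ e₀ = P.σ (P.σ e₀) - e₀ := by
      have := congrArg P.σ h1
      rw [map_sub, map_sub, P.right_inv] at this
      exact this.symm
    set e := P.τ (P.τ e₀) with he
    have h3 : P.σ e = -e := by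
      have : P.σ e + e = (P.σ (P.σ (P.σ e₀)) - P.σ e₀) - (P.σ (P.σ e₀) - e₀) := by
        simp only [he, τ, map_sub]
        abel
      rw [h2, sub_self] at this
      exact eq_neg_of_add_eq_zero_left this
    have h4 : ∀ k : ℕ, P.σ^[k] e = ((-1 : ℤ) ^ k) • e := by
      intro k
      induction k with
      | zero => simp
      | succ k ih =>
        rw [Function.iterate_succ_apply', ih, map_zsmul, h3, pow_succ]
        simp
    have h5 : e = -e := by
      have := h4 ϖ
      rw [hper, hodd.neg_one_pow] at this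
      simpa using this
    change P.σ e - e = 0
    have h6 : e + e = 0 := eq_neg_iff_add_eq_zero.mp h5
    have h7 : -e - e = -(e + e) := by abel
    rw [h3, h7, h6, neg_zero]
  obtain ⟨a, ha⟩ := hne
  apply ha
  have hfix := P.τ_eq_zero_of_sq r ϖ hbr hcop hper
  have h1 : P.τ (P.τ (P.τ a)) = 0 := hfix _ (hrel a)
  have h2 : P.τ (P.τ a) = 0 := hfix _ h1
  exact sub_eq_zero.mp (hfix _ h2)

/-- Existence of `a` with `τ a ≠ 0`, `τ² a = 0` when `σ` has order dividing the odd prime exponent. -/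
theorem exists_nil (r : ℕ) (hr : r.Prime) (hodd : Odd r) (hbr : ∀ a c, r • P.b a c = 0)
    (hper : ∀ a, P.σ^[r] a = a) (hne : ∃ a, P.σ a ≠ a) :
    ∃ a, P.τ a ≠ 0 ∧ P.τ (P.τ a) = 0 := by
  classical
  have hra := P.nsmul_eq_zero r hbr
  let S : Module.End ℤ A := P.σ.toIntLinearMap
  let T : Module.End ℤ A := S - 1
  have hTa : ∀ a, T a = P.τ a := fun a => rfl
  have hpow : T ^ r = 0 := by
    ext a
    obtain ⟨k, hk⟩ : ∃ k, r = k + 1 := ⟨r - 1, by have := hr.pos; omega⟩
    have h1 : T = S + (-1) := by simp [T, sub_eq_add_neg]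
    have hc : Commute S (-1) := (Commute.one_right S).neg_right
    rw [h1, hc.add_pow, Finset.sum_range_succ, hk, Finset.sum_range_succ']
    rw [← hk]
    have hS : ∀ j (v : A), (S ^ j) v = P.σ^[j] v := fun j v => Module.End.pow_apply _ _ _
    have h2 : ∀ m ∈ Finset.range k,
        (S ^ (m + 1) * (-1) ^ (r - (m + 1)) * (r.choose (m + 1) : Module.End ℤ A)) a = 0 := by
      intro m hm
      have hm' := Finset.mem_range.mp hm
      have hd : r ∣ r.choose (m + 1) := hr.dvd_choose_self (by omega) (by omega)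
      obtain ⟨t, ht⟩ := hd
      have h3 : r.choose (m + 1) • a = 0 := by
        rw [ht, mul_comm, mul_nsmul, hra]
      simp only [Module.End.mul_apply, Module.End.natCast_apply, h3, map_zero]
    simp only [LinearMap.add_apply, LinearMap.sum_apply]
    rw [Finset.sum_eq_zero h2, zero_add]
    simp only [Module.End.mul_apply, Module.End.natCast_apply, hS, pow_zero, Nat.sub_zero,
      Nat.choose_self, Nat.choose_zero_right, one_smul, Nat.sub_self, hodd.neg_one_pow,
      hper, Module.End.one_apply, LinearMap.neg_apply]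
    simp
  have hT0 : T ≠ 0 := by
    obtain ⟨a, ha⟩ := hne
    intro h0
    have := LinearMap.congr_fun h0 a
    exact ha (sub_eq_zero.mp this)
  have hex : ∃ k, T ^ k = 0 := ⟨r, hpow⟩
  have hmin : ∀ m, m < Nat.find hex → ¬ T ^ m = 0 := fun m hm => Nat.find_min hex hm
  have hspec := Nat.find_spec hex
  set k := Nat.find hex with hkdef
  have hk0 : k ≠ 0 := by
    intro h0
    rw [h0, pow_zero] at hspec
    apply hT0
    rw [← mul_one T, hspec, mul_zero]
  have hk1 : k ≠ 1 := by
    intro h0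
    rw [h0, pow_one] at hspec
    exact hT0 hspec
  obtain ⟨j, hj⟩ : ∃ j, k = j + 2 := ⟨k - 2, by omega⟩
  have hne1 : T ^ (j + 1) ≠ 0 := hmin _ (by omega)
  obtain ⟨a₀, ha₀⟩ : ∃ a₀, (T ^ (j + 1)) a₀ ≠ 0 := by
    by_contra hcon
    push Not at hcon
    exact hne1 (LinearMap.ext hcon)
  refine ⟨(T ^ j) a₀, ?_, ?_⟩
  · rw [← hTa, ← Module.End.mul_apply, ← pow_succ']
    exact ha₀
  · rw [← hTa, ← hTa, ← Module.End.mul_apply, ← Module.End.mul_apply]
    have h9 : T * T * T ^ j = T ^ k := by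
      rw [hj, add_comm j 2, pow_add, sq]
    rw [h9, hspec]
    rfl

end SympAut

end Cfsg.Agent.Lib.ExtraEig
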