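/-
Setting: `R ≤ GL_n(F)` with scalar commutators, absolutely irreducible; the group `S = R · scalars`,
the quotient `S / scalars` with its commutator form, and the conjugation action of an element `g`
normalising `S`.
-/
import Cfsg.Agent.Lib.ExtraEig.Basic
import Cfsg.Agent.Lib.ExtraEig.Form
import Cfsg.Prelude.Def_GeometricClasses

set_option autoImplicit false

namespace Cfsg.Agent.Lib.ExtraEig

open Module Cfsg.Geo

variable {F : Type*} [Field F] {n : ℕ}

/-- The group `GL_n(F)`. -/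
abbrev GLn (n : ℕ) (F : Type*) [Field F] := Matrix.GeneralLinearGroup (Fin n) F

/-- The scalar homomorphism. -/
def sc : Fˣ →* GLn n F := Units.map (Matrix.scalar (Fin n) : F →+* Matrix (Fin n) (Fin n) F).toMonoidHom

theorem sc_val (a : Fˣ) : ((sc a : GLn n F) : Matrix (Fin n) (Fin n) F) = (a : F) • 1 := by
  simp [sc, Matrix.smul_one_eq_diagonal]

theorem mem_scalars (x : GLn n F) : x ∈ scalars (Fin n) F ↔ ∃ a : Fˣ, sc a = x := Iff.rfl

theorem sc_mem (a : Fˣ) : (sc a : GLn n F) ∈ scalars (Fin n) F := ⟨a, rfl⟩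

theorem sc_comm (a : Fˣ) (x : GLn n F) : sc a * x = x * sc a := by
  apply Units.ext
  simp [sc_val]

theorem sc_injective [NeZero n] : Function.Injective (sc : Fˣ → GLn n F) := by
  intro a b h
  have h1 := congrArg (fun x : GLn n F => (x : Matrix (Fin n) (Fin n) F) 0 0) h
  simp only [sc_val, Matrix.smul_apply, Matrix.one_apply_eq, smul_eq_mul, mul_one] at h1
  exact Units.ext h1

/-- The linear operator of an element of `GL_n(F)`. -/
noncomputable def op (x : GLn n F) : End F (Fin n → F) := Matrix.toLin' (x : Matrix (Fin n) (Fin n) F)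

theorem op_mul (x y : GLn n F) : op (x * y) = op x * op y := by
  simp [op, Matrix.toLin'_mul, Module.End.mul_eq_comp]

theorem op_one : op (1 : GLn n F) = 1 := by
  simp [op]
  rfl

theorem op_sc (a : Fˣ) : op (sc a : GLn n F) = (a : F) • 1 := by
  simp only [op, sc_val, map_smul, Matrix.toLin'_one]
  rfl

theorem op_inv_apply (x : GLn n F) (v : Fin n → F) : op x⁻¹ (op x v) = v := by
  rw [← Module.End.mul_apply, ← op_mul, inv_mul_cancel, op_one]
  rfl

theorem op_apply_inv (x : GLn n F) (v : Fin n → F) : op x (op x⁻¹ v) = v := by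
  rw [← Module.End.mul_apply, ← op_mul, mul_inv_cancel, op_one]
  rfl

theorem op_injective (x : GLn n F) : Function.Injective (op x) :=
  Function.LeftInverse.injective (op_inv_apply x)

theorem finrank_fin : finrank F (Fin n → F) = n := by simp

/-- A matrix of `GL_n(F)` commuting with a subgroup `R` acting absolutely irreducibly is scalar. -/
theorem mem_scalars_of_commute [NeZero n] {R : Subgroup (GLn n F)}
    (hirr : ActsAbsolutelyIrreducibly (matrixSet R)) (g : GLn n F)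
    (h : ∀ x ∈ R, g * x = x * g) : g ∈ scalars (Fin n) F := by
  obtain ⟨c, hc⟩ := hirr.2 (g : Matrix (Fin n) (Fin n) F) (by
    rintro _ ⟨x, hx, rfl⟩
    have := congrArg (fun z : GLn n F => (z : Matrix (Fin n) (Fin n) F)) (h x hx)
    simpa using this)
  have hc0 : c ≠ 0 := by
    rintro rfl
    have h1 : ((g⁻¹ * g : GLn n F) : Matrix (Fin n) (Fin n) F) = 1 := by
      rw [inv_mul_cancel]
      rfl
    rw [Units.val_mul, hc, zero_smul, mul_zero] at h1
    have h2 := congrFun (congrFun h1 0) 0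
    simp at h2
  refine ⟨Units.mk0 c hc0, Units.ext ?_⟩
  change ((sc (Units.mk0 c hc0) : GLn n F) : Matrix (Fin n) (Fin n) F) = g
  rw [sc_val, hc]
  simp

/-- `R` has scalar commutators. -/
class ScalarComm (R : Subgroup (GLn n F)) : Prop where
  comm : ∀ x ∈ R, ∀ y ∈ R, x * y * x⁻¹ * y⁻¹ ∈ scalars (Fin n) F

/-- `R · scalars`. -/
def SS (R : Subgroup (GLn n F)) : Subgroup (GLn n F) := R ⊔ scalars (Fin n) F

theorem le_SS (R : Subgroup (GLn n F)) : R ≤ SS R := le_sup_left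

theorem sc_mem_SS (R : Subgroup (GLn n F)) (a : Fˣ) : (sc a : GLn n F) ∈ SS R :=
  (le_sup_right : scalars (Fin n) F ≤ SS R) (sc_mem a)

theorem mem_SS {R : Subgroup (GLn n F)} {u : GLn n F} (hu : u ∈ SS R) :
    ∃ x ∈ R, ∃ a : Fˣ, u = x * sc a := by
  obtain ⟨x, hx, z, ⟨a, rfl⟩, rfl⟩ := Subgroup.mem_sup_of_normal_right.mp hu
  exact ⟨x, hx, a, rfl⟩

theorem comm_central {G : Type*} [Group G] (x y a b : G) (ha : ∀ z, a * z = z * a)
    (hb : ∀ z, b * z = z * b) : (x * a) * (y * b) * (x * a)⁻¹ * (y * b)⁻¹ = x * y * x⁻¹ * y⁻¹ := by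
  have e1 : (x * a) * (y * b) = x * y * (a * b) := by
    rw [mul_assoc x a, ← mul_assoc a y b, ha y, mul_assoc y a b, ← mul_assoc x y]
  have e2 : (y * b) * (x * a) = y * x * (a * b) := by
    rw [mul_assoc y b, ← mul_assoc b x a, hb x, mul_assoc x b a, ← mul_assoc y x, hb a]
  have key : (x * a) * (y * b) = (x * y * x⁻¹ * y⁻¹) * ((y * b) * (x * a)) := by
    rw [e1, e2]
    group
  rw [key]
  group

/-- A commutator in `SS R` equals a commutator in `R`. -/
theorem comm_SS (x y : GLn n F) (a b : Fˣ) :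
    (x * sc a) * (y * sc b) * (x * sc a)⁻¹ * (y * sc b)⁻¹ = x * y * x⁻¹ * y⁻¹ :=
  comm_central x y _ _ (sc_comm a) (sc_comm b)

theorem comm_mem_SS {R : Subgroup (GLn n F)} [ScalarComm R] {u v : GLn n F} (hu : u ∈ SS R)
    (hv : v ∈ SS R) : u * v * u⁻¹ * v⁻¹ ∈ scalars (Fin n) F := by
  obtain ⟨x, hx, a, rfl⟩ := mem_SS hu
  obtain ⟨y, hy, b, rfl⟩ := mem_SS hv
  rw [comm_SS]
  exact ScalarComm.comm x hx y hy

/-- The subgroup of scalars inside `SS R`. -/
def ZZ (R : Subgroup (GLn n F)) : Subgroup ↥(SS R) := (scalars (Fin n) F).subgroupOf (SS R)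

instance (R : Subgroup (GLn n F)) : (ZZ R).Normal := by
  unfold ZZ
  infer_instance

/-- The quotient `SS R / scalars`. -/
def QQ (R : Subgroup (GLn n F)) : Type _ := ↥(SS R) ⧸ ZZ R

noncomputable instance (R : Subgroup (GLn n F)) : Group (QQ R) :=
  inferInstanceAs (Group (↥(SS R) ⧸ ZZ R))

/-- The quotient map. -/
def mkQ (R : Subgroup (GLn n F)) : ↥(SS R) →* QQ R := QuotientGroup.mk' (ZZ R)

theorem mkQ_surj (R : Subgroup (GLn n F)) : Function.Surjective (mkQ R) :=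
  QuotientGroup.mk'_surjective _

theorem mkQ_eq_one {R : Subgroup (GLn n F)} (u : ↥(SS R)) :
    mkQ R u = 1 ↔ (u : GLn n F) ∈ scalars (Fin n) F := by
  show QuotientGroup.mk' (ZZ R) u = 1 ↔ _
  rw [QuotientGroup.mk'_apply, QuotientGroup.eq_one_iff]
  rfl

theorem mkQ_eq {R : Subgroup (GLn n F)} (u v : ↥(SS R)) :
    mkQ R u = mkQ R v ↔ ((u⁻¹ * v : ↥(SS R)) : GLn n F) ∈ scalars (Fin n) F := by
  rw [← mkQ_eq_one, map_mul, map_inv, inv_mul_eq_one, eq_comm]

noncomputable instance (R : Subgroup (GLn n F)) [ScalarComm R] : CommGroup (QQ R) :=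
  { (inferInstance : Group (QQ R)) with
    mul_comm := by
      intro a b
      obtain ⟨u, rfl⟩ := mkQ_surj R a
      obtain ⟨v, rfl⟩ := mkQ_surj R b
      rw [← map_mul, ← map_mul, mkQ_eq]
      have h1 := comm_mem_SS (R := R) (inv_mem v.2) (inv_mem u.2)
      simp only [inv_inv] at h1
      have h2 : (((u * v)⁻¹ * (v * u) : ↥(SS R)) : GLn n F)
          = (v : GLn n F)⁻¹ * ((u : GLn n F)⁻¹) * v * u := by
        simp [mul_assoc]
      rw [h2]
      exact h1 }

theorem comm_mul_left {G : Type*} [Group G] (U U' V c c' : G) (hc' : ∀ z, c' * z = z * c')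
    (h1 : U' * V * U'⁻¹ = c' * V) (h2 : U * V * U⁻¹ = c * V) :
    (U * U') * V * (U * U')⁻¹ * V⁻¹ = c' * c := by
  have h3 : (U * U') * V * (U * U')⁻¹ = U * (U' * V * U'⁻¹) * U⁻¹ := by group
  rw [h3, h1, ← mul_assoc U, ← hc' U]
  have h4 : c' * U * V * U⁻¹ = c' * (U * V * U⁻¹) := by group
  rw [h4, h2]
  group

theorem comm_mul_right {G : Type*} [Group G] (U V V' c c' : G) (hc' : ∀ z, c' * z = z * c')
    (h1 : U * V * U⁻¹ = c * V) (h2 : U * V' * U⁻¹ = c' * V') :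
    U * (V * V') * U⁻¹ * (V * V')⁻¹ = c * c' := by
  have h3 : U * (V * V') * U⁻¹ = (U * V * U⁻¹) * (U * V' * U⁻¹) := by group
  rw [h3, h1, h2, mul_assoc c V, ← mul_assoc V c', ← hc' V]
  group

section form

variable {R : Subgroup (GLn n F)} [ScalarComm R]

/-- The commutator form on `SS R`. -/
noncomputable def κ (u v : ↥(SS R)) : Fˣ := Classical.choose (comm_mem_SS u.2 v.2)

theorem sc_κ (u v : ↥(SS R)) :
    (sc (κ u v) : GLn n F) = (u : GLn n F) * (v : GLn n F) * (u : GLn n F)⁻¹ * (v : GLn n F)⁻¹ :=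
  Classical.choose_spec (comm_mem_SS u.2 v.2)

theorem conj_eq (u v : ↥(SS R)) :
    (u : GLn n F) * (v : GLn n F) * (u : GLn n F)⁻¹ = sc (κ u v) * (v : GLn n F) := by
  rw [sc_κ]
  group

variable [NeZero n]

theorem κ_mul_l (u u' v : ↥(SS R)) : κ (u * u') v = κ u v * κ u' v := by
  apply sc_injective (n := n)
  rw [map_mul, sc_κ, sc_comm, Subgroup.coe_mul]
  exact comm_mul_left _ _ _ _ _ (sc_comm _) (conj_eq u' v) (conj_eq u v) |>.trans (by rw [sc_comm])

theorem κ_mul_r (u v v' : ↥(SS R)) : κ u (v * v') = κ u v * κ u v' := by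
  apply sc_injective (n := n)
  rw [map_mul, sc_κ, Subgroup.coe_mul]
  exact comm_mul_right _ _ _ _ _ (sc_comm _) (conj_eq u v) (conj_eq u v')

theorem κ_self (u : ↥(SS R)) : κ u u = 1 := by
  apply sc_injective (n := n)
  rw [sc_κ, map_one]
  group

theorem κ_of_scalar_l (u v : ↥(SS R)) (hu : (u : GLn n F) ∈ scalars (Fin n) F) : κ u v = 1 := by
  apply sc_injective (n := n)
  rw [sc_κ, map_one]
  obtain ⟨a, ha⟩ := (mem_scalars _).mp hu
  rw [← ha, sc_comm]
  group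

theorem κ_of_scalar_r (u v : ↥(SS R)) (hv : (v : GLn n F) ∈ scalars (Fin n) F) : κ u v = 1 := by
  apply sc_injective (n := n)
  rw [sc_κ, map_one]
  obtain ⟨a, ha⟩ := (mem_scalars _).mp hv
  rw [← ha, ← sc_comm a]
  group

theorem κ_congr {u u' v v' : ↥(SS R)} (hu : mkQ R u = mkQ R u') (hv : mkQ R v = mkQ R v') :
    κ u v = κ u' v' := by
  have h1 : κ u' v' = κ (u * (u⁻¹ * u')) (v * (v⁻¹ * v')) := by
    rw [mul_inv_cancel_left, mul_inv_cancel_left]
  rw [h1, κ_mul_l, κ_of_scalar_l (u⁻¹ * u') _ ((mkQ_eq _ _).mp hu), κ_mul_r u v,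
    κ_of_scalar_r u (v⁻¹ * v') ((mkQ_eq _ _).mp hv)]
  simp

/-- The form on the quotient. -/
noncomputable def bQ (a c : QQ R) : Fˣ :=
  κ (Function.surjInv (mkQ_surj R) a) (Function.surjInv (mkQ_surj R) c)

theorem bQ_mk (u v : ↥(SS R)) : bQ (mkQ R u) (mkQ R v) = κ u v :=
  κ_congr (Function.surjInv_eq _ _) (Function.surjInv_eq _ _)

/-- Conjugation by an element normalising `SS R`. -/
def cg (g : GLn n F) (hg : g ∈ Subgroup.normalizer (SS R : Set (GLn n F))) : ↥(SS R) →* ↥(SS R) where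
  toFun u := ⟨g * u * g⁻¹, (Subgroup.mem_normalizer_iff.mp hg _).mp u.2⟩
  map_one' := by
    apply Subtype.ext
    simp
  map_mul' u v := by
    apply Subtype.ext
    simp only [Subgroup.coe_mul]
    group

theorem cg_coe (g : GLn n F) (hg : g ∈ Subgroup.normalizer (SS R : Set (GLn n F))) (u : ↥(SS R)) :
    (cg g hg u : GLn n F) = g * u * g⁻¹ := rfl

/-- The induced map on the quotient. -/
noncomputable def sig (g : GLn n F) (hg : g ∈ Subgroup.normalizer (SS R : Set (GLn n F))) :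
    QQ R →* QQ R :=
  QuotientGroup.map (ZZ R) (ZZ R) (cg g hg) (by
    intro u hu
    change ((cg g hg u : ↥(SS R)) : GLn n F) ∈ scalars (Fin n) F
    rw [cg_coe]
    exact (inferInstance : (scalars (Fin n) F).Normal).conj_mem _ hu g)

theorem sig_mk (g : GLn n F) (hg : g ∈ Subgroup.normalizer (SS R : Set (GLn n F))) (u : ↥(SS R)) :
    sig g hg (mkQ R u) = mkQ R (cg g hg u) := rfl

theorem cg_inv_cg (g : GLn n F) (hg : g ∈ Subgroup.normalizer (SS R : Set (GLn n F)))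
    (u : ↥(SS R)) : cg g⁻¹ (inv_mem hg) (cg g hg u) = u := by
  apply Subtype.ext
  simp only [cg_coe]
  group

theorem cg_cg_inv (g : GLn n F) (hg : g ∈ Subgroup.normalizer (SS R : Set (GLn n F)))
    (u : ↥(SS R)) : cg g hg (cg g⁻¹ (inv_mem hg) u) = u := by
  apply Subtype.ext
  simp only [cg_coe]
  group

theorem κ_cg (g : GLn n F) (hg : g ∈ Subgroup.normalizer (SS R : Set (GLn n F)))
    (u v : ↥(SS R)) : κ (cg g hg u) (cg g hg v) = κ u v := by
  apply sc_injective (n := n)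
  rw [sc_κ, cg_coe, cg_coe]
  have h1 : g * u * g⁻¹ * (g * v * g⁻¹) * (g * u * g⁻¹)⁻¹ * (g * v * g⁻¹)⁻¹
      = g * ((u : GLn n F) * v * (u : GLn n F)⁻¹ * (v : GLn n F)⁻¹) * g⁻¹ := by group
  rw [h1, ← sc_κ, ← sc_comm]
  group

theorem cg_iterate (g : GLn n F) (hg : g ∈ Subgroup.normalizer (SS R : Set (GLn n F)))
    (k : ℕ) (u : ↥(SS R)) : (((cg g hg)^[k] u : ↥(SS R)) : GLn n F) = g ^ k * u * (g ^ k)⁻¹ := by
  induction k with
  | zero => simp
  | succ k ih =>
    rw [Function.iterate_succ_apply', cg_coe, ih, pow_succ']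
    group

/-- The symplectic structure on the quotient `SS R / scalars`, with the action of `g`. -/
noncomputable def symp (hirr : ActsAbsolutelyIrreducibly (matrixSet R)) (g : GLn n F)
    (hg : g ∈ Subgroup.normalizer (SS R : Set (GLn n F))) :
    SympAut (Additive (QQ R)) (Additive Fˣ) where
  σ := MonoidHom.toAdditive (sig g hg)
  σ' := MonoidHom.toAdditive (sig g⁻¹ (inv_mem hg))
  left_inv := by
    intro a
    obtain ⟨u, hu⟩ := mkQ_surj R a.toMul
    obtain rfl : a = Additive.ofMul (mkQ R u) := by rw [hu]; rfl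
    change Additive.ofMul (sig g⁻¹ (inv_mem hg) (sig g hg (mkQ R u))) = _
    rw [sig_mk, sig_mk, cg_inv_cg]
  right_inv := by
    intro a
    obtain ⟨u, hu⟩ := mkQ_surj R a.toMul
    obtain rfl : a = Additive.ofMul (mkQ R u) := by rw [hu]; rfl
    change Additive.ofMul (sig g hg (sig g⁻¹ (inv_mem hg) (mkQ R u))) = _
    rw [sig_mk, sig_mk, cg_cg_inv]
  b a c := Additive.ofMul (bQ a.toMul c.toMul)
  add_l := by
    intro a a' c
    obtain ⟨u, hu⟩ := mkQ_surj R a.toMul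
    obtain ⟨u', hu'⟩ := mkQ_surj R a'.toMul
    obtain ⟨v, hv⟩ := mkQ_surj R c.toMul
    rw [toMul_add, ← hu, ← hu', ← hv, ← map_mul, bQ_mk, bQ_mk, bQ_mk, κ_mul_l, ofMul_mul]
  add_r := by
    intro a c c'
    obtain ⟨u, hu⟩ := mkQ_surj R a.toMul
    obtain ⟨v, hv⟩ := mkQ_surj R c.toMul
    obtain ⟨v', hv'⟩ := mkQ_surj R c'.toMul
    rw [toMul_add, ← hu, ← hv, ← hv', ← map_mul, bQ_mk, bQ_mk, bQ_mk, κ_mul_r, ofMul_mul]
  alt := by
    intro a
    obtain ⟨u, hu⟩ := mkQ_surj R a.toMul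
    rw [← hu, bQ_mk, κ_self]
    rfl
  nd := by
    intro a ha
    obtain ⟨u, hu⟩ := mkQ_surj R a.toMul
    have h1 : (u : GLn n F) ∈ scalars (Fin n) F := by
      apply mem_scalars_of_commute hirr
      intro x hx
      have h2 := ha (Additive.ofMul (mkQ R ⟨x, le_SS R hx⟩))
      rw [← hu, toMul_ofMul, bQ_mk] at h2
      have h3 : κ u ⟨x, le_SS R hx⟩ = 1 := h2
      have h4 := conj_eq u ⟨x, le_SS R hx⟩
      rw [h3, map_one, one_mul] at h4
      simpa using mul_inv_eq_iff_eq_mul.mp h4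
    have h2 : a.toMul = 1 := by rw [← hu, mkQ_eq_one]; exact h1
    exact h2
  inv := by
    intro a c
    obtain ⟨u, hu⟩ := mkQ_surj R a.toMul
    obtain ⟨v, hv⟩ := mkQ_surj R c.toMul
    change Additive.ofMul (bQ (sig g hg a.toMul) (sig g hg c.toMul)) = _
    rw [← hu, ← hv, sig_mk, sig_mk, bQ_mk, bQ_mk, κ_cg]

/-- The element `u⁻¹ · g u g⁻¹`. -/
def yy (g : GLn n F) (hg : g ∈ Subgroup.normalizer (SS R : Set (GLn n F))) (u : ↥(SS R)) :
    ↥(SS R) := u⁻¹ * cg g hg u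

theorem yy_coe (g : GLn n F) (hg : g ∈ Subgroup.normalizer (SS R : Set (GLn n F)))
    (u : ↥(SS R)) : (yy g hg u : GLn n F) = (u : GLn n F)⁻¹ * (g * u * g⁻¹) := rfl

theorem symp_σ (hirr : ActsAbsolutelyIrreducibly (matrixSet R)) (g : GLn n F)
    (hg : g ∈ Subgroup.normalizer (SS R : Set (GLn n F))) (u : ↥(SS R)) :
    (symp hirr g hg).σ (Additive.ofMul (mkQ R u)) = Additive.ofMul (mkQ R (cg g hg u)) := rfl

theorem symp_τ (hirr : ActsAbsolutelyIrreducibly (matrixSet R)) (g : GLn n F)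
    (hg : g ∈ Subgroup.normalizer (SS R : Set (GLn n F))) (u : ↥(SS R)) :
    (symp hirr g hg).τ (Additive.ofMul (mkQ R u)) = Additive.ofMul (mkQ R (yy g hg u)) := by
  simp only [SympAut.τ, symp_σ, yy, map_mul, map_inv]
  rw [← ofMul_div, div_eq_inv_mul]

theorem symp_iter (hirr : ActsAbsolutelyIrreducibly (matrixSet R)) (g : GLn n F)
    (hg : g ∈ Subgroup.normalizer (SS R : Set (GLn n F))) (k : ℕ) (u : ↥(SS R)) :
    (symp hirr g hg).σ^[k] (Additive.ofMul (mkQ R u))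
      = Additive.ofMul (mkQ R ((cg g hg)^[k] u)) := by
  induction k with
  | zero => rfl
  | succ k ih => rw [Function.iterate_succ_apply', ih, symp_σ, Function.iterate_succ_apply']

theorem symp_per (hirr : ActsAbsolutelyIrreducibly (matrixSet R)) (g : GLn n F)
    (hg : g ∈ Subgroup.normalizer (SS R : Set (GLn n F))) {k : ℕ} (hk : g ^ k = 1)
    (a : Additive (QQ R)) : (symp hirr g hg).σ^[k] a = a := by
  obtain ⟨u, hu⟩ := mkQ_surj R a.toMul
  obtain rfl : a = Additive.ofMul (mkQ R u) := by rw [hu]; rfl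
  rw [symp_iter]
  congr 2
  apply Subtype.ext
  rw [cg_iterate, hk]
  simp

theorem symp_hbr (hirr : ActsAbsolutelyIrreducibly (matrixSet R)) (g : GLn n F)
    (hg : g ∈ Subgroup.normalizer (SS R : Set (GLn n F))) {r : ℕ}
    (hκr : ∀ u v : ↥(SS R), κ u v ^ r = 1) (a c : Additive (QQ R)) :
    r • (symp hirr g hg).b a c = 0 := by
  obtain ⟨u, hu⟩ := mkQ_surj R a.toMul
  obtain ⟨v, hv⟩ := mkQ_surj R c.toMul
  change r • Additive.ofMul (bQ a.toMul c.toMul) = 0
  rw [← hu, ← hv, bQ_mk, ← ofMul_pow, hκr]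
  rfl

theorem symp_ne (hirr : ActsAbsolutelyIrreducibly (matrixSet R)) (g : GLn n F)
    (hg : g ∈ Subgroup.normalizer (SS R : Set (GLn n F)))
    (hB : ∃ u : ↥(SS R), (yy g hg u : GLn n F) ∉ scalars (Fin n) F) :
    ∃ a, (symp hirr g hg).σ a ≠ a := by
  obtain ⟨u, hu⟩ := hB
  refine ⟨Additive.ofMul (mkQ R u), ?_⟩
  rw [symp_σ]
  intro h
  apply hu
  have h1 : mkQ R (cg g hg u) = mkQ R u := h
  exact (mkQ_eq _ _).mp h1.symm

/-- There is `u` with `y = u⁻¹ g u g⁻¹` not commuting (up to nothing) with `g y g⁻¹`. -/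
theorem exists_anticomm (hirr : ActsAbsolutelyIrreducibly (matrixSet R)) (g : GLn n F)
    (hg : g ∈ Subgroup.normalizer (SS R : Set (GLn n F))) {r ϖ : ℕ}
    (hκr : ∀ u v : ↥(SS R), κ u v ^ r = 1) (hodd : Odd ϖ) (hcop : Nat.Coprime ϖ r)
    (hgϖ : g ^ ϖ = 1) (hB : ∃ u : ↥(SS R), (yy g hg u : GLn n F) ∉ scalars (Fin n) F) :
    ∃ u : ↥(SS R), κ (yy g hg u) (cg g hg (yy g hg u)) ≠ 1 := by
  obtain ⟨a, ha⟩ := (symp hirr g hg).exists_Q_ne r ϖ (symp_hbr hirr g hg hκr) hodd hcop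
    (symp_per hirr g hg hgϖ) (symp_ne hirr g hg hB)
  obtain ⟨u, hu⟩ := mkQ_surj R a.toMul
  obtain rfl : a = Additive.ofMul (mkQ R u) := by rw [hu]; rfl
  refine ⟨u, fun h => ha ?_⟩
  rw [symp_τ, symp_σ]
  change Additive.ofMul (bQ (mkQ R (yy g hg u)) (mkQ R (cg g hg (yy g hg u)))) = 0
  rw [bQ_mk, h]
  rfl

/-- There is `u` with `y = u⁻¹ g u g⁻¹` not scalar and centralised by `g` modulo scalars. -/
theorem exists_nil_elem (hirr : ActsAbsolutelyIrreducibly (matrixSet R)) (g : GLn n F)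
    (hg : g ∈ Subgroup.normalizer (SS R : Set (GLn n F))) {r : ℕ} (hr : r.Prime) (hodd : Odd r)
    (hκr : ∀ u v : ↥(SS R), κ u v ^ r = 1) (hgr : g ^ r = 1)
    (hB : ∃ u : ↥(SS R), (yy g hg u : GLn n F) ∉ scalars (Fin n) F) :
    ∃ u : ↥(SS R), (yy g hg u : GLn n F) ∉ scalars (Fin n) F ∧
      (yy g hg (yy g hg u) : GLn n F) ∈ scalars (Fin n) F := by
  obtain ⟨a, ha, ha'⟩ := (symp hirr g hg).exists_nil r hr hodd (symp_hbr hirr g hg hκr)
    (symp_per hirr g hg hgr) (symp_ne hirr g hg hB)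
  obtain ⟨u, hu⟩ := mkQ_surj R a.toMul
  obtain rfl : a = Additive.ofMul (mkQ R u) := by rw [hu]; rfl
  rw [symp_τ] at ha ha'
  rw [symp_τ] at ha'
  refine ⟨u, fun h => ha ?_, ?_⟩
  · have : mkQ R (yy g hg u) = 1 := (mkQ_eq_one _).mpr h
    rw [this]
    rfl
  · exact (mkQ_eq_one _).mp ha'

end form

end Cfsg.Agent.Lib.ExtraEig
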