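/-
The bounds for eigenspaces of an element normalising `R · scalars`, in the various cases.
-/
import Cfsg.Agent.Lib.ExtraEig.Setup
import Cfsg.Agent.Lib.ExtraEig.Ops

set_option autoImplicit false

namespace Cfsg.Agent.Lib.ExtraEig

open Module Cfsg.Geo

variable {F : Type*} [Field F] {n : ℕ}

theorem op_pow (x : GLn n F) (k : ℕ) : op (x ^ k) = op x ^ k := by
  induction k with
  | zero => simp [op_one]
  | succ k ih => rw [pow_succ, op_mul, ih, pow_succ]

theorem prim_of {θ : F} {r : ℕ} (hr : r.Prime) (h1 : θ ^ r = 1) (hne : θ ≠ 1) :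
    IsPrimitiveRoot θ r := by
  have : Fact r.Prime := ⟨hr⟩
  have := orderOf_eq_prime h1 hne
  rw [← this]
  exact IsPrimitiveRoot.orderOf θ

theorem sc_mul_pow (x : GLn n F) (a : Fˣ) (k : ℕ) : (x * sc a) ^ k = x ^ k * sc (a ^ k) := by
  have h : Commute x (sc a) := (sc_comm a x).symm
  rw [h.mul_pow, map_pow]

/-- Fixed vectors of `u⁻¹ g u g⁻¹`. -/
theorem fix_of_mem (g u : GLn n F) {c : F} (hc : c ≠ 0) (v : Fin n → F) (hv : op g v = c • v)
    (huv : op g (op u v) = c • op u v) : op (u⁻¹ * (g * u * g⁻¹)) v = v := by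
  have h1 : op g⁻¹ v = c⁻¹ • v := by
    have h2 := op_inv_apply g v
    rw [hv, map_smul] at h2
    rw [← h2, smul_smul, inv_mul_cancel₀ hc, one_smul]
    rw [h2]
  rw [op_mul, op_mul, op_mul, Module.End.mul_apply, Module.End.mul_apply, Module.End.mul_apply, h1,
    map_smul, map_smul, map_smul, huv, map_smul, smul_smul, inv_mul_cancel₀ hc, one_smul,
    op_inv_apply]

/-- Fixed vectors of the conjugate `g y g⁻¹` of an element fixing an eigenvector of `g`. -/
theorem fix_conj (g y : GLn n F) {c : F} (hc : c ≠ 0) (v : Fin n → F) (hv : op g v = c • v)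
    (hy : op y v = v) : op (g * y * g⁻¹) v = v := by
  have h1 : op g⁻¹ v = c⁻¹ • v := by
    have h2 := op_inv_apply g v
    rw [hv, map_smul] at h2
    rw [← h2, smul_smul, inv_mul_cancel₀ hc, one_smul]
    rw [h2]
  rw [op_mul, op_mul, Module.End.mul_apply, Module.End.mul_apply, h1, map_smul, hy, map_smul, hv,
    smul_smul, inv_mul_cancel₀ hc, one_smul]

/-- Dimension count for two translates of an eigenspace. -/
theorem two_dim_le (g u : GLn n F) (c : F) :
    2 * finrank F ((op g).eigenspace c) ≤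
      n + finrank F ↥((op g).eigenspace c ⊓ ((op g).eigenspace c).comap (op u)) := by
  set W := (op g).eigenspace c with hW
  set U := W.comap (op u) with hU
  have h1 : finrank F U = finrank F W := by
    have h2 : U = W.map (op u⁻¹) := by
      ext v
      simp only [hU, Submodule.mem_comap, Submodule.mem_map]
      constructor
      · intro hv
        exact ⟨_, hv, op_inv_apply u v⟩
      · rintro ⟨w, hw, rfl⟩
        rwa [op_apply_inv]
    rw [h2]
    exact finrank_map_inj _ (op_injective _) _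
  have h3 := Submodule.finrank_sup_add_finrank_inf_eq W U
  have h4 : finrank F ↥(W ⊔ U) ≤ n := by
    have := Submodule.finrank_le (W ⊔ U)
    rwa [finrank_fin] at this
  omega

variable {R : Subgroup (GLn n F)} [ScalarComm R] [NeZero n]

omit [Field F] in
theorem arith1 {r d m : ℕ} (hr : 4 ≤ r) (h : r ^ 2 * d ≤ (2 * r - 1) * m) : 2 * d ≤ m := by
  by_contra hcon
  push Not at hcon
  obtain ⟨t, ht⟩ : ∃ t, 2 * r - 1 = t := ⟨_, rfl⟩
  have ht' : t + 1 = 2 * r := by omega
  rw [ht] at h
  have h2 : 2 * t ≤ r ^ 2 := by nlinarith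
  have h3 : r ^ 2 * (m + 1) ≤ r ^ 2 * (2 * d) := Nat.mul_le_mul_left _ hcon
  have h5 : (2 * t) * m ≤ r ^ 2 * m := Nat.mul_le_mul_right _ h2
  have h6 : 0 < r ^ 2 := by positivity
  nlinarith

/-- The commutator relation as an operator relation. -/
theorem comm_rel (u v : ↥(SS R)) :
    op (u : GLn n F) * op (v : GLn n F) = (κ u v : F) • (op (v : GLn n F) * op (u : GLn n F)) := by
  have h1 : (u : GLn n F) * (v : GLn n F) = sc (κ u v) * ((v : GLn n F) * (u : GLn n F)) := by
    have := conj_eq u v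
    rw [mul_inv_eq_iff_eq_mul] at this
    rw [this, mul_assoc]
  rw [← op_mul, h1, op_mul, op_sc, op_mul]
  simp

/-- Eigenspaces of nonscalar elements of `SS R` have dimension at most `n / r`. -/
theorem eig_bound (hirr : ActsAbsolutelyIrreducibly (matrixSet R)) {r : ℕ} (hr : r.Prime)
    (hκr : ∀ u v : ↥(SS R), κ u v ^ r = 1) (y : ↥(SS R))
    (hy : (y : GLn n F) ∉ scalars (Fin n) F) (η : F) (hη : η ≠ 0) :
    r * finrank F ((op (y : GLn n F)).eigenspace η) ≤ n := by
  obtain ⟨x, hx, hne⟩ : ∃ x ∈ R, (y : GLn n F) * x ≠ x * y := by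
    by_contra hcon
    push Not at hcon
    exact hy (mem_scalars_of_commute hirr _ hcon)
  set x' : ↥(SS R) := ⟨x, le_SS R hx⟩
  have hθ : κ y x' ≠ 1 := by
    intro h
    apply hne
    have h1 := comm_rel y x'
    have h2 := conj_eq y x'
    rw [h, map_one, one_mul, mul_inv_eq_iff_eq_mul] at h2
    exact h2
  have hprim : IsPrimitiveRoot (κ y x' : F) r := by
    apply prim_of hr
    · have := congrArg Units.val (hκr y x')
      simpa using this
    · intro h
      exact hθ (Units.ext h)
  have h1 := mul_finrank_le (op (y : GLn n F)) (op (x' : GLn n F)) (op_injective _) hprim hη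
    (comm_rel y x') ⊤ (fun _ _ => Submodule.mem_top)
  rw [inf_top_eq, finrank_top, finrank_fin] at h1
  exact h1

variable {g : GLn n F} {hg : g ∈ Subgroup.normalizer (SS R : Set (GLn n F))}

/-- `u⁻¹ g u g⁻¹ = a` (scalar) as an operator relation. -/
theorem yy_rel (u : ↥(SS R)) (a : Fˣ) (h : (yy g hg u : GLn n F) = sc a) :
    op g * op (u : GLn n F) = (a : F) • (op (u : GLn n F) * op g) := by
  rw [yy_coe, inv_mul_eq_iff_eq_mul, mul_inv_eq_iff_eq_mul] at h
  rw [← op_mul, h, ← sc_comm, mul_assoc, op_mul, op_sc, op_mul]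
  simp

/-- `g u = u y g`. -/
theorem yy_rel' (u : ↥(SS R)) :
    op g * op (u : GLn n F) = op (u : GLn n F) * op (yy g hg u : GLn n F) * op g := by
  have h : (u : GLn n F) * (yy g hg u : GLn n F) * g = g * u := by
    rw [yy_coe]
    group
  rw [← op_mul, ← h, op_mul, op_mul]

/-- Case A: all commutators with `g` are scalar. -/
theorem caseA (hirr : ActsAbsolutelyIrreducibly (matrixSet R)) (hns : g ∉ scalars (Fin n) F)
    (hA : ∀ u : ↥(SS R), (yy g hg u : GLn n F) ∈ scalars (Fin n) F) {c : F} (hc : c ≠ 0) :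
    2 * finrank F ((op g).eigenspace c) ≤ n := by
  obtain ⟨x, hx, hne⟩ : ∃ x ∈ R, g * x ≠ x * g := by
    by_contra hcon
    push Not at hcon
    exact hns (mem_scalars_of_commute hirr _ hcon)
  set x' : ↥(SS R) := ⟨x, le_SS R hx⟩
  obtain ⟨a, ha⟩ := (mem_scalars _).mp (hA x')
  have hrel := yy_rel (hg := hg) x' a ha.symm
  have ha1 : (a : F) ≠ 1 := by
    intro h
    apply hne
    have h1 : a = 1 := Units.ext h
    rw [h1, map_one, yy_coe] at ha
    have h3 := inv_mul_eq_one.mp ha.symm
    exact (eq_mul_inv_iff_mul_eq.mp h3).symm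
  have := two_mul_finrank_le (op g) (op (x' : GLn n F)) (op_injective _) ha1 hc hrel
  rwa [finrank_fin] at this

/-- The first bound, when some commutator is not scalar. -/
theorem first_bound (hirr : ActsAbsolutelyIrreducibly (matrixSet R)) {r : ℕ} (hr : r.Prime)
    (hκr : ∀ u v : ↥(SS R), κ u v ^ r = 1) (u : ↥(SS R))
    (hy : (yy g hg u : GLn n F) ∉ scalars (Fin n) F) {c : F} (hc : c ≠ 0) :
    r * (2 * finrank F ((op g).eigenspace c)) ≤ r * n + n := by
  have h1 := two_dim_le g (u : GLn n F) c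
  have h2 : (op g).eigenspace c ⊓ ((op g).eigenspace c).comap (op (u : GLn n F)) ≤
      (op (yy g hg u : GLn n F)).eigenspace 1 := by
    rintro v ⟨hv1, hv2⟩
    have hv1' : op g v = c • v := Module.End.mem_eigenspace_iff.mp hv1
    have hv2' : op g (op (u : GLn n F) v) = c • op (u : GLn n F) v :=
      Module.End.mem_eigenspace_iff.mp hv2
    rw [Module.End.mem_eigenspace_iff, yy_coe, one_smul]
    exact fix_of_mem g u hc v hv1' hv2'
  have h3 := eig_bound hirr hr hκr (yy g hg u) hy 1 one_ne_zero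
  have h4 := Submodule.finrank_mono h2
  calc r * (2 * finrank F ((op g).eigenspace c))
      ≤ r * (n + finrank F ↥((op (yy g hg u : GLn n F)).eigenspace 1)) :=
        Nat.mul_le_mul_left _ (h1.trans (by omega))
    _ = r * n + r * finrank F ↥((op (yy g hg u : GLn n F)).eigenspace 1) := by ring
    _ ≤ r * n + n := by omega

/-- Case B1: `g` has odd order prime to `r`. -/
theorem caseB1 (hirr : ActsAbsolutelyIrreducibly (matrixSet R)) {r ϖ : ℕ}
    (hκr : ∀ u v : ↥(SS R), κ u v ^ r = 1) (hodd : Odd ϖ) (hcop : Nat.Coprime ϖ r)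
    (hgϖ : g ^ ϖ = 1) (hB : ∃ u : ↥(SS R), (yy g hg u : GLn n F) ∉ scalars (Fin n) F)
    {c : F} (hc : c ≠ 0) : 2 * finrank F ((op g).eigenspace c) ≤ n := by
  obtain ⟨u, hk⟩ := exists_anticomm hirr g hg hκr hodd hcop hgϖ hB
  have h1 := two_dim_le g (u : GLn n F) c
  have h2 : (op g).eigenspace c ⊓ ((op g).eigenspace c).comap (op (u : GLn n F)) = ⊥ := by
    rw [eq_bot_iff]
    rintro v ⟨hv1, hv2⟩
    have hv1' : op g v = c • v := Module.End.mem_eigenspace_iff.mp hv1
    have hv2' : op g (op (u : GLn n F) v) = c • op (u : GLn n F) v :=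
      Module.End.mem_eigenspace_iff.mp hv2
    have hy : op (yy g hg u : GLn n F) v = v := by
      rw [yy_coe]
      exact fix_of_mem g u hc v hv1' hv2'
    have hy1 : op (cg g hg (yy g hg u) : GLn n F) v = v := by
      rw [cg_coe]
      exact fix_conj g _ hc v hv1' hy
    have hrel := LinearMap.congr_fun (comm_rel (yy g hg u) (cg g hg (yy g hg u))) v
    simp only [Module.End.mul_apply, LinearMap.smul_apply] at hrel
    rw [hy1, hy, hy1] at hrel
    have h3 : ((κ (yy g hg u) (cg g hg (yy g hg u)) : F) - 1) • v = 0 := by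
      rw [sub_smul, one_smul, ← hrel, sub_self]
    have h4 : (κ (yy g hg u) (cg g hg (yy g hg u)) : F) - 1 ≠ 0 := by
      intro h
      exact hk (Units.ext (sub_eq_zero.mp h))
    exact (smul_eq_zero.mp h3).resolve_left h4
  rw [h2, finrank_bot] at h1
  omega

/-- `y^r = 1` for `y = u⁻¹ g u g⁻¹`, when `R` has exponent `r`. -/
theorem yy_pow (r : ℕ) (hexp : ∀ x ∈ R, x ^ r = 1) (u : ↥(SS R)) :
    (yy g hg u : GLn n F) ^ r = 1 := by
  obtain ⟨x, hx, a, hu⟩ := mem_SS u.2
  obtain ⟨y₀, hy₀, b, hy⟩ := mem_SS (yy g hg u).2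
  have h1 : g * (u : GLn n F) * g⁻¹ = u * (yy g hg u : GLn n F) := by
    rw [yy_coe]
    group
  have h2 : (g * (u : GLn n F) * g⁻¹) ^ r = sc (a ^ r) := by
    rw [conj_pow, hu, sc_mul_pow, hexp x hx, one_mul, ← sc_comm]
    group
  have h3 : (u : GLn n F) * (yy g hg u : GLn n F) = x * y₀ * sc (a * b) := by
    rw [hu, hy, map_mul, mul_assoc x, ← mul_assoc (sc a), sc_comm a y₀]
    simp only [mul_assoc]
  rw [h1, h3, sc_mul_pow, hexp _ (mul_mem hx hy₀), one_mul] at h2
  have h4 : b ^ r = 1 := by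
    have h5 := sc_injective (n := n) h2
    rw [mul_pow] at h5
    exact mul_left_cancel (a := a ^ r) (by rw [h5, mul_one])
  rw [hy, sc_mul_pow, hexp _ hy₀, h4, map_one, one_mul]

/-- Case B2: `g` has order `r ≥ 4`, `R` has exponent `r`. -/
theorem caseB2 (hirr : ActsAbsolutelyIrreducibly (matrixSet R)) {r : ℕ} (hr : r.Prime)
    (hr4 : 4 ≤ r) (hκr : ∀ u v : ↥(SS R), κ u v ^ r = 1) (hexp : ∀ x ∈ R, x ^ r = 1)
    (hgr : g ^ r = 1) (hB : ∃ u : ↥(SS R), (yy g hg u : GLn n F) ∉ scalars (Fin n) F)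
    {c : F} (hc : c ≠ 0) : 2 * finrank F ((op g).eigenspace c) ≤ n := by
  have hodd : Odd r := hr.odd_of_ne_two (by omega)
  obtain ⟨u, hy, hyy⟩ := exists_nil_elem hirr g hg hr hodd hκr hgr hB
  set y := yy g hg u with hydef
  obtain ⟨lam, hlam⟩ := (mem_scalars _).mp hyy
  have hrel := yy_rel (hg := hg) y lam hlam.symm
  by_cases hl : (lam : F) = 1
  swap
  · have := two_mul_finrank_le (op g) (op (y : GLn n F)) (op_injective _) hl hc hrel
    rwa [finrank_fin] at this
  rw [hl, one_smul] at hrel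
  have hYr : op (y : GLn n F) ^ r = 1 := by
    rw [← op_pow, yy_pow r hexp u, op_one]
  have hGX := yy_rel' (g := g) (hg := hg) u
  rw [← hydef] at hGX
  have hE := eig_bound hirr hr hκr y hy
  by_cases hθ : κ y u = 1
  · -- commuting case
    have hYX := comm_rel y u
    rw [hθ, Units.val_one, one_smul] at hYX
    obtain ⟨x, hx, hne⟩ : ∃ x ∈ R, (y : GLn n F) * x ≠ x * y := by
      by_contra hcon
      push Not at hcon
      exact hy (mem_scalars_of_commute hirr _ hcon)
    set x' : ↥(SS R) := ⟨x, le_SS R hx⟩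
    have hζ : IsPrimitiveRoot (κ y x' : F) r := by
      apply prim_of hr
      · have := congrArg Units.val (hκr y x')
        simpa using this
      · intro h
        have h1 : κ y x' = 1 := Units.ext h
        apply hne
        have h2 := conj_eq y x'
        rw [h1, map_one, one_mul, mul_inv_eq_iff_eq_mul] at h2
        exact h2
    have := comm_bound (op g) (op (u : GLn n F)) (op (y : GLn n F)) (op_injective _) hr hζ hc hGX
      hrel hYX hYr (by
        intro η hη
        rw [finrank_fin]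
        exact hE η hη)
    rw [finrank_fin] at this
    exact arith1 hr4 this
  · have hprim : IsPrimitiveRoot (κ y u : F) r := by
      apply prim_of hr
      · have := congrArg Units.val (hκr y u)
        simpa using this
      · intro h
        exact hθ (Units.ext h)
    have := noncomm_bound (op g) (op (u : GLn n F)) (op (y : GLn n F)) (op_injective _) hr hprim hc
      hGX hrel (comm_rel y u) hYr (by
        rw [finrank_fin]
        exact hE 1 one_ne_zero)
    rw [finrank_fin] at this
    nlinarith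

end Cfsg.Agent.Lib.ExtraEig
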